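import Cfsg.Agent.PPrimeAbelian.Final

/-!
The count of involution pairs when `O(M)` is centralised by `Ω₁(S)`.
-/

set_option autoImplicit false
set_option linter.style.haveILetI false
set_option linter.unusedSectionVars false

namespace Cfsg.Agent.PPrimeAbelian.Ctx

open Subgroup
open scoped commutatorElement Pointwise

universe u

variable {G : Type u} [Group G] [Finite G] {p : ℕ} (c : Ctx p G) [Fact p.Prime] (S : Sylow 2 G)
  {M : Subgroup G} (hM : Ctx.Emb S M)
  (hO : (Cfsg.pPrimeCore 2 M).map M.subtype ≤ centralizer ((sqOne (S : Subgroup G) : Subgroup G) : Set G))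
include c hM hO

theorem M_le_normalizer : M ≤ normalizer ((sqOne (S : Subgroup G) : Subgroup G) : Set G) :=
  (c.M_le_core_sup S hM).trans (sup_le (hO.trans (Coprime.centralizer_le_normalizer' _))
    (inf_le_right.trans (normalizer_le_normalizer_sqOne _)))

theorem centralizer_eq {e : G} (he : e ∈ sqOne (S : Subgroup G)) (he1 : e ≠ 1) :
    centralizer ({e} : Set G) = centralizer ((sqOne (S : Subgroup G) : Subgroup G) : Set G) := by
  refine le_antisymm (fun g hg => ?_) (centralizer_le (by simpa using he))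
  refine c.fix_all S hM (c.M_le_normalizer S hM hO (hM.cent e he he1 hg)) he he1 ?_
  rw [mem_centralizer_singleton_iff.1 hg, mul_inv_cancel_right]

/-- An involution commuting with one of `Ω₁(S)` lies in it. -/
theorem mem_of_commute {e u : G} (he : e ∈ sqOne (S : Subgroup G)) (he1 : e ≠ 1)
    (hu : orderOf u = 2) (huc : Commute u e) : u ∈ sqOne (S : Subgroup G) := by
  refine c.mem_of_normalizes S (TwoFusion.involution_mul_self hu) ?_
  exact c.M_le_normalizer S hM hO (hM.cent e he he1 (mem_centralizer_singleton_iff.2 huc.eq))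

theorem card_commuting {t : G} (ht : orderOf t = 2) :
    Nat.card {u : G // orderOf u = 2 ∧ Commute u t} = p := by
  obtain ⟨g, hg⟩ := c.exists_conj_mem S ht
  set E := sqOne (S : Subgroup G) with hE
  have hg1 : g * t * g⁻¹ ≠ 1 := fun h => TwoFusion.involution_ne_one ht (conj_eq_one_iff.1 h)
  have e1 : {u : G // orderOf u = 2 ∧ Commute u t} ≃ {x : E // x ≠ 1} :=
    { toFun := fun u => ⟨⟨g * u.1 * g⁻¹, c.mem_of_commute S hM hO hg hg1
        (by rw [TwoFusion.orderOf_conj']; exact u.2.1)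
        (by show _ = _; rw [conj_mul, conj_mul, u.2.2.eq])⟩, fun h =>
          TwoFusion.involution_ne_one u.2.1 (conj_eq_one_iff.1 (congrArg Subtype.val h))⟩
      invFun := fun x => ⟨g⁻¹ * x.1.1 * g, by
        have h := c.orderOf_mem S x.1.2 (fun h => x.2 (Subtype.ext h))
        refine ⟨by rw [show g⁻¹ * x.1.1 * g = g⁻¹ * x.1.1 * g⁻¹⁻¹ by group,
          TwoFusion.orderOf_conj']; exact h, ?_⟩
        have hc := Signalizer.elemAb_comm (c.elemAb_sqOne S) x.1.2 hg
        show g⁻¹ * x.1.1 * g * t = t * (g⁻¹ * x.1.1 * g)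
        calc g⁻¹ * x.1.1 * g * t = g⁻¹ * (x.1.1 * (g * t * g⁻¹)) * g := by group
          _ = g⁻¹ * ((g * t * g⁻¹) * x.1.1) * g := by rw [hc]
          _ = t * (g⁻¹ * x.1.1 * g) := by group⟩
      left_inv := fun u => Subtype.ext (by show g⁻¹ * (g * u.1 * g⁻¹) * g = u.1; group)
      right_inv := fun x => Subtype.ext (Subtype.ext (by
        show g * (g⁻¹ * x.1.1 * g) * g⁻¹ = x.1.1; group)) }
  rw [Nat.card_congr e1]
  have h1 := c.card_sqOne S hM
  rw [← hE] at h1
  have h2 := Set.ncard_add_ncard_compl ({1} : Set E)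
  rw [Set.ncard_singleton, h1] at h2
  have h3 : Nat.card {x : E // x ≠ 1} = ({1}ᶜ : Set E).ncard := by
    rw [← Nat.card_coe_set_eq]; rfl
  omega

/-- A real element: inverted by an involution, of order greater than two. -/
def Real (x : G) : Prop := x ^ 2 ≠ 1 ∧ ∃ s : G, orderOf s = 2 ∧ s * x * s⁻¹ = x⁻¹

/-- The centraliser of a real element has odd order. -/
theorem odd_centralizer {x s : G} (hx : x ^ 2 ≠ 1) (hs : orderOf s = 2)
    (hinv : s * x * s⁻¹ = x⁻¹) : Odd (Nat.card (centralizer ({x} : Set G))) := by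
  rw [← Nat.not_even_iff_odd, even_iff_two_dvd]
  intro h2
  obtain ⟨⟨w, hwC⟩, hw⟩ := exists_prime_orderOf_dvd_card' (G := centralizer ({x} : Set G)) 2 h2
  have hw' : orderOf w = 2 := by rw [← hw, orderOf_mk]
  obtain ⟨g, hg⟩ := c.exists_conj_mem S hw'
  have hg1 : g * w * g⁻¹ ≠ 1 := fun h => TwoFusion.involution_ne_one hw' (conj_eq_one_iff.1 h)
  set y := g * x * g⁻¹ with hy
  set s' := g * s * g⁻¹ with hs'
  have hyw : y ∈ centralizer ((sqOne (S : Subgroup G) : Subgroup G) : Set G) := by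
    rw [← c.centralizer_eq S hM hO hg hg1]
    refine mem_centralizer_singleton_iff.2 ?_
    rw [hy, conj_mul, conj_mul, (mem_centralizer_singleton_iff.1 hwC).symm]
  have hy1 : y ≠ 1 := fun h => hx (by rw [conj_eq_one_iff.1 h, one_pow])
  have hXt : normalizer ((zpowers y : Subgroup G) : Set G) ≠ ⊤ := by
    refine c.normalizer_ne_top (fun h => hy1 (zpowers_eq_bot.1 h)) fun h => c.noncomm ⟨⟨fun a b => ?_⟩⟩
    obtain ⟨i, rfl⟩ := mem_zpowers_iff.1 (h.symm ▸ mem_top a : a ∈ zpowers y)
    obtain ⟨j, rfl⟩ := mem_zpowers_iff.1 (h.symm ▸ mem_top b : b ∈ zpowers y)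
    exact (Commute.zpow_zpow_self y i j).eq
  have hEX : sqOne (S : Subgroup G) ≤ normalizer ((zpowers y : Subgroup G) : Set G) := by
    refine le_trans ?_ (Coprime.centralizer_le_normalizer' _)
    rw [centralizer_zpowers_eq]
    exact fun e he => mem_centralizer_singleton_iff.2 (mem_centralizer_iff.1 hyw e he)
  have hsy : s' * y * s'⁻¹ = y⁻¹ := by
    rw [hs', hy]
    calc g * s * g⁻¹ * (g * x * g⁻¹) * (g * s * g⁻¹)⁻¹ = g * (s * x * s⁻¹) * g⁻¹ := by group
      _ = (g * x * g⁻¹)⁻¹ := by rw [hinv]; group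
  have hs'X : s' ∈ normalizer ((zpowers y : Subgroup G) : Set G) := by
    refine Signalizer.map_conj_eq_self_iff.1 ?_
    rw [MonoidHom.map_zpowers]
    show zpowers (s' * y * s'⁻¹) = zpowers y
    rw [hsy, zpowers_inv]
  have hs'2 : orderOf s' = 2 := by rw [hs', TwoFusion.orderOf_conj', hs]
  have hs'E := c.mem_of_normalizes S (TwoFusion.involution_mul_self hs'2)
    (c.M_le_normalizer S hM hO (c.le_M S hM hXt hEX hs'X))
  have h := mem_centralizer_iff.1 hyw s' hs'E
  rw [h, mul_inv_cancel_right] at hsy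
  refine hx ?_
  have h2 : y ^ 2 = 1 := by rw [pow_two]; nth_rewrite 1 [hsy]; exact inv_mul_cancel y
  rw [hy, conj_pow] at h2
  exact conj_eq_one_iff.1 h2
where
  centralizer_zpowers_eq {y : G} :
      centralizer ((zpowers y : Subgroup G) : Set G) = centralizer ({y} : Set G) :=
    Signalizer.centralizer_zpowers y

/-- The centraliser of a real element is inverted by the involution. -/
theorem inverted {x s : G} (hx : x ^ 2 ≠ 1) (hs : orderOf s = 2) (hinv : s * x * s⁻¹ = x⁻¹)
    {y : G} (hy : y ∈ centralizer ({x} : Set G)) : s * y * s⁻¹ = y⁻¹ := by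
  set C := centralizer ({x} : Set G) with hC
  have hodd := c.odd_centralizer S hM hO hx hs hinv
  have hss := TwoFusion.involution_mul_self hs
  have hsC : ∀ z ∈ C, s * z * s⁻¹ ∈ C := by
    intro z hz
    refine mem_centralizer_singleton_iff.2 ?_
    have h1 : s * x⁻¹ * s⁻¹ = x := by
      rw [← inv_inv (s * x⁻¹ * s⁻¹)]
      conv_rhs => rw [← inv_inv x, ← hinv]
      group
    have h2 := (mem_centralizer_singleton_iff.1 hz)
    have h3 : z * x⁻¹ = x⁻¹ * z := ((show Commute z x from h2).inv_right).eq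
    calc s * z * s⁻¹ * x = s * z * s⁻¹ * (s * x⁻¹ * s⁻¹) := by rw [h1]
      _ = s * (z * x⁻¹) * s⁻¹ := by group
      _ = s * (x⁻¹ * z) * s⁻¹ := by rw [h3]
      _ = (s * x⁻¹ * s⁻¹) * (s * z * s⁻¹) := by group
      _ = x * (s * z * s⁻¹) := by rw [h1]
  -- no fixed points
  have hfpf : ∀ z ∈ C, s * z * s⁻¹ = z → z = 1 := by
    intro z hz hzs
    by_contra hz1
    obtain ⟨g, hg⟩ := c.exists_conj_mem S hs
    have hg1 : g * s * g⁻¹ ≠ 1 := fun h => TwoFusion.involution_ne_one hs (conj_eq_one_iff.1 h)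
    have hzc : z * s = s * z := by
      calc z * s = s * z * s⁻¹ * s := by rw [hzs]
        _ = s * z := by group
    have hzE : g * z * g⁻¹ ∈ centralizer ((sqOne (S : Subgroup G) : Subgroup G) : Set G) := by
      rw [← c.centralizer_eq S hM hO hg hg1]
      exact mem_centralizer_singleton_iff.2 (by rw [conj_mul, conj_mul, hzc])
    have hEX : sqOne (S : Subgroup G) ≤ centralizer ({g * z * g⁻¹} : Set G) := fun e he =>
      mem_centralizer_singleton_iff.2 (mem_centralizer_iff.1 hzE e he)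
    have hgx : g * x * g⁻¹ ∈ M := c.le_M S hM
      (c.centralizer_ne_top fun h => hz1 (conj_eq_one_iff.1 h)) hEX
      (mem_centralizer_singleton_iff.2 (by rw [conj_mul, conj_mul, (mem_centralizer_singleton_iff.1 hz).symm]))
    have hN := c.M_le_normalizer S hM hO hgx
    set e := g * s * g⁻¹ with he
    set w := g * x * g⁻¹ with hw
    have h1 : w⁻¹ * e * w * e⁻¹ ∈ sqOne (S : Subgroup G) := mul_mem
      (by simpa using (mem_normalizer_iff.1 (inv_mem hN) e).1 hg) (inv_mem hg)
    have hew : e * w * e⁻¹ = w⁻¹ := by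
      calc e * w * e⁻¹ = g * (s * x * s⁻¹) * g⁻¹ := by rw [hw, he]; group
        _ = w⁻¹ := by rw [hinv, hw]; group
    have h2 : w⁻¹ * e * w * e⁻¹ = (w * w)⁻¹ := by
      rw [show w⁻¹ * e * w * e⁻¹ = w⁻¹ * (e * w * e⁻¹) by group, hew]
      exact (mul_inv_rev w w).symm
    rw [h2] at h1
    by_cases hww : w * w = 1
    · refine hx ?_
      rw [pow_two]
      rw [hw, conj_mul] at hww
      exact conj_eq_one_iff.1 hww
    · have h3 := c.orderOf_mem S h1 (fun h => hww (inv_eq_one.1 h))
      rw [orderOf_inv] at h3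
      -- `x` has odd order
      have hxC : x ∈ C := mem_centralizer_singleton_iff.2 rfl
      have h4 : orderOf (x * x) ∣ Nat.card C := by
        rw [← orderOf_mk (x * x) (C.mul_mem hxC hxC)]
        exact orderOf_dvd_natCard _
      rw [hw, conj_mul, TwoFusion.orderOf_conj'] at h3
      rw [h3] at h4
      exact Nat.not_even_iff_odd.2 hodd (even_iff_two_dvd.2 h4)
  -- hence every element is a twisted commutator
  let f : C → C := fun z => ⟨(z : G)⁻¹ * (s * z * s⁻¹), C.mul_mem (C.inv_mem z.2) (hsC z z.2)⟩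
  have hf : Function.Injective f := by
    intro a b hab
    have h := congrArg Subtype.val hab
    change (a : G)⁻¹ * (s * a * s⁻¹) = (b : G)⁻¹ * (s * b * s⁻¹) at h
    have h5 := hfpf ((b : G) * (a : G)⁻¹) (C.mul_mem b.2 (C.inv_mem a.2)) (by
      calc s * ((b : G) * (a : G)⁻¹) * s⁻¹ = (s * b * s⁻¹) * (s * a * s⁻¹)⁻¹ := by group
        _ = (b : G) * ((b : G)⁻¹ * (s * b * s⁻¹)) * (s * a * s⁻¹)⁻¹ := by group
        _ = (b : G) * ((a : G)⁻¹ * (s * a * s⁻¹)) * (s * a * s⁻¹)⁻¹ := by rw [h]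
        _ = (b : G) * (a : G)⁻¹ := by group)
    exact Subtype.ext (mul_inv_eq_one.1 h5).symm
  obtain ⟨z, hz⟩ := (Finite.injective_iff_surjective.1 hf) ⟨y, hy⟩
  have hz' : y = (z : G)⁻¹ * (s * z * s⁻¹) := (congrArg Subtype.val hz).symm
  have hs' : s⁻¹ = s := TwoFusion.involution_inv hs
  rw [hz', mul_inv_rev, inv_inv]
  calc s * ((z : G)⁻¹ * (s * z * s⁻¹)) * s⁻¹ = s * (z : G)⁻¹ * s * z * (s * s)⁻¹ := by group
    _ = (s * z * s⁻¹)⁻¹ * z := by
        rw [hss, inv_one, mul_one, mul_inv_rev, mul_inv_rev, inv_inv, hs']; group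

/-- An element inverted by an involution and of odd order is a `p`-element. -/
theorem pElement {y s : G} (hs : orderOf s = 2) (hinv : s * y * s⁻¹ = y⁻¹)
    (hy : Odd (orderOf y)) : ∃ k, y ^ p ^ k = 1 := by
  haveI : Fact (Nat.Prime 2) := ⟨Nat.prime_two⟩
  obtain ⟨u, v, huv, hu, ⟨k, hk⟩, huz, -⟩ := exists_parts (p := p) Fact.out y
  obtain ⟨i, rfl⟩ := mem_zpowers_iff.1 huz
  have hsu : s * y ^ i * s⁻¹ = (y ^ i)⁻¹ := by rw [← conj_zpow, hinv, inv_zpow]
  have hn : s ∈ normalizer ((zpowers (y ^ i) : Subgroup G) : Set G) := by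
    refine Signalizer.map_conj_eq_self_iff.1 ?_
    rw [MonoidHom.map_zpowers]
    show zpowers (s * y ^ i * s⁻¹) = zpowers (y ^ i)
    rw [hsu, zpowers_inv]
  have hc : Commute s (y ^ i) := c.hyp.commute (H := zpowers (y ^ i) ⊔ zpowers s) (by
      refine Nat.Coprime.coprime_dvd_left (Signalizer.card_sup_dvd (zpowers_le.2 hn)) ?_
      rw [Nat.card_zpowers, Nat.card_zpowers, hs]
      exact hu.mul_left c.coprime_two)
    (mem_sup_right (mem_zpowers _)) (mem_sup_left (mem_zpowers _))
  rw [hc.eq, mul_inv_cancel_right, eq_comm, inv_eq_iff_mul_eq_one, ← pow_two] at hsu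
  have h1 : orderOf (y ^ i) = 1 := Nat.eq_one_of_dvd_coprimes (Nat.coprime_two_left.2 hy)
    (orderOf_dvd_of_pow_eq_one hsu) (orderOf_dvd_of_mem_zpowers (zpow_mem (mem_zpowers y) i))
  refine ⟨k, ?_⟩
  rw [huv, orderOf_eq_one_iff.1 h1, one_mul, hk]

/-- The centraliser of a real element is a Sylow `p`-subgroup. -/
theorem centralizer_real {x : G} (hx : Ctx.Real x) :
    IsPGroup p ↥(centralizer ({x} : Set G)) := by
  obtain ⟨hx2, s, hs, hinv⟩ := hx
  intro z
  obtain ⟨k, hk⟩ := c.pElement S hM hO hs (c.inverted S hM hO hx2 hs hinv z.2)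
    ((c.odd_centralizer S hM hO hx2 hs hinv).of_dvd_nat (by
      rw [← orderOf_mk (z : G) z.2]; exact orderOf_dvd_natCard _))
  exact ⟨k, Subtype.ext hk⟩

theorem sylow_of_real {x : G} (hx : Ctx.Real x) :
    ∃ P : Sylow p G, (P : Subgroup G) = centralizer ({x} : Set G) ∧
      ∀ y ∈ (P : Subgroup G), y ≠ 1 → Ctx.Real y ∧ (P : Subgroup G) ≤ centralizer ({y} : Set G) := by
  obtain ⟨hx2, s, hs, hinv⟩ := hx
  have hCp := c.centralizer_real S hM hO ⟨hx2, s, hs, hinv⟩
  obtain ⟨P, hP⟩ := hCp.exists_le_sylow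
  have hxC : x ∈ centralizer ({x} : Set G) := mem_centralizer_singleton_iff.2 rfl
  have hx1 : x ≠ 1 := fun h => hx2 (by rw [h, one_pow])
  -- a central element
  haveI : Nontrivial P := ⟨⟨⟨x, hP hxC⟩, 1, fun h => hx1 (congrArg Subtype.val h)⟩⟩
  obtain ⟨z, hz, hz1⟩ := (ne_bot_iff_exists_ne_one (H := center (P : Subgroup G))).1
    (P.2.center_nontrivial |> (nontrivial_iff_ne_bot _).1) |> fun ⟨z, h⟩ =>
      (⟨z.1, z.2, fun e => h (Subtype.ext e)⟩ : ∃ z, z ∈ center (P : Subgroup G) ∧ z ≠ 1)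
  have hzC : (z : G) ∈ centralizer ({x} : Set G) :=
    mem_centralizer_singleton_iff.2 (congrArg Subtype.val (mem_center_iff.1 hz ⟨x, hP hxC⟩)).symm
  have hodd := c.odd_centralizer S hM hO hx2 hs hinv
  have hreal : ∀ y ∈ centralizer ({x} : Set G), y ≠ 1 → Ctx.Real y := by
    intro y hy hy1
    refine ⟨fun h => ?_, s, hs, c.inverted S hM hO hx2 hs hinv hy⟩
    have h2 := orderOf_eq_prime h hy1
    have h3 : 2 ∣ Nat.card (centralizer ({x} : Set G)) := by
      rw [← h2, ← orderOf_mk y hy]; exact orderOf_dvd_natCard _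
    exact Nat.not_even_iff_odd.2 hodd (even_iff_two_dvd.2 h3)
  have hzR := hreal z hzC (fun h => hz1 (Subtype.ext h))
  obtain ⟨hz2, s', hs', hzinv⟩ := hzR
  have hPz : (P : Subgroup G) ≤ centralizer ({(z : G)} : Set G) := fun y hy =>
    mem_centralizer_singleton_iff.2 (congrArg Subtype.val (mem_center_iff.1 hz ⟨y, hy⟩))
  have hab : ∀ a ∈ (P : Subgroup G), ∀ b ∈ (P : Subgroup G), a * b = b * a := by
    intro a ha b hb
    have h1 := c.inverted S hM hO hz2 hs' hzinv (hPz (mul_mem ha hb))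
    have h2 := c.inverted S hM hO hz2 hs' hzinv (hPz ha)
    have h3 := c.inverted S hM hO hz2 hs' hzinv (hPz hb)
    have h4 : s' * (a * b) * s'⁻¹ = (s' * a * s'⁻¹) * (s' * b * s'⁻¹) := by group
    rw [h1, h2, h3, mul_inv_rev] at h4
    calc a * b = (b⁻¹ * a⁻¹)⁻¹ := by group
      _ = (a⁻¹ * b⁻¹)⁻¹ := by rw [h4]
      _ = b * a := by group
  have hPC : (P : Subgroup G) = centralizer ({x} : Set G) := le_antisymm
    (fun y hy => mem_centralizer_singleton_iff.2 (hab y hy x (hP hxC))) hP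
  refine ⟨P, hPC, fun y hy hy1 => ⟨hreal y (hPC ▸ hy) hy1, fun w hw => ?_⟩⟩
  exact mem_centralizer_singleton_iff.2 (hab w hw y hy)

theorem exists_real : ∃ x : G, Ctx.Real x := by
  obtain ⟨e, he, he1, i, hi, hiM⟩ := c.exists_outside S hM
  have he2 := c.orderOf_mem S he he1
  refine ⟨e * i, fun h => hiM (hM.cent e he he1 (mem_centralizer_singleton_iff.2 ?_)), e, he2, ?_⟩
  · rw [pow_two] at h
    calc i * e = e * (e * i * (e * i)) * i := by
          calc i * e = e * e * i * e * (i * i) := by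
                rw [TwoFusion.involution_mul_self he2, TwoFusion.involution_mul_self hi, one_mul, mul_one]
            _ = _ := by group
      _ = e * i := by rw [h, mul_one]
  · exact Invol.conj_inv_of_pair he2 hi rfl

theorem sylow_real (P : Sylow p G) {y : G} (hy : y ∈ (P : Subgroup G)) (hy1 : y ≠ 1) :
    Ctx.Real y ∧ centralizer ({y} : Set G) = (P : Subgroup G) := by
  obtain ⟨x, hx⟩ := c.exists_real S hM hO
  obtain ⟨Q, -, hQ⟩ := c.sylow_of_real S hM hO hx
  obtain ⟨g, hg⟩ := MulAction.exists_smul_eq G P Q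
  have hyQ : g * y * g⁻¹ ∈ (Q : Subgroup G) := by
    rw [← hg]
    exact (smul_mem_pointwise_smul y _ _ hy : MulAut.conj g • y ∈ MulAut.conj g • (P : Subgroup G))
  obtain ⟨⟨h2, s, hs, hinv⟩, hle⟩ := hQ _ hyQ (fun h => hy1 (conj_eq_one_iff.1 h))
  have hreal : Ctx.Real y := by
    refine ⟨fun h => h2 (by rw [conj_pow, h, mul_one, mul_inv_cancel]), g⁻¹ * s * g, ?_, ?_⟩
    · rw [show g⁻¹ * s * g = g⁻¹ * s * g⁻¹⁻¹ by group, TwoFusion.orderOf_conj', hs]
    · calc g⁻¹ * s * g * y * (g⁻¹ * s * g)⁻¹ = g⁻¹ * (s * (g * y * g⁻¹) * s⁻¹) * g := by group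
        _ = y⁻¹ := by rw [hinv]; group
  refine ⟨hreal, le_antisymm (fun w hw => ?_) (fun w hw => ?_)⟩
  · obtain ⟨R, hR, -⟩ := c.sylow_of_real S hM hO hreal
    have hPR : (P : Subgroup G) ≤ (R : Subgroup G) := by
      rw [hR]
      intro v hv
      have hv' : g * v * g⁻¹ ∈ (Q : Subgroup G) := by
        rw [← hg]
        exact (smul_mem_pointwise_smul v _ _ hv : MulAut.conj g • v ∈ MulAut.conj g • (P : Subgroup G))
      have h3 := mem_centralizer_singleton_iff.1 (hle hv')
      rw [conj_mul, conj_mul] at h3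
      exact mem_centralizer_singleton_iff.2 (mul_left_cancel (mul_right_cancel h3))
    rw [← P.is_maximal' R.2 hPR, hR]
    exact hw
  · have hv' : g * w * g⁻¹ ∈ (Q : Subgroup G) := by
      rw [← hg]
      exact (smul_mem_pointwise_smul w _ _ hw : MulAut.conj g • w ∈ MulAut.conj g • (P : Subgroup G))
    have h3 := mem_centralizer_singleton_iff.1 (hle hv')
    rw [conj_mul, conj_mul] at h3
    exact mem_centralizer_singleton_iff.2 (mul_left_cancel (mul_right_cancel h3))

/-- The count. -/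
theorem false_of_centralized : False := by
  classical
  haveI : Fintype G := Fintype.ofFinite G
  obtain ⟨x₀, hx₀⟩ := c.exists_real S hM hO
  obtain ⟨P, hP, -⟩ := c.sylow_of_real S hM hO hx₀
  obtain ⟨k, hk⟩ := IsPGroup.iff_card.1 P.2
  have hk1 : 1 ≤ k := by
    by_contra h
    have h1 : Nat.card (P : Subgroup G) = 1 := by rw [hk, show k = 0 by omega, pow_zero]
    have h2 : x₀ ∈ (P : Subgroup G) := hP ▸ mem_centralizer_singleton_iff.2 rfl
    rw [eq_bot_of_card_eq _ h1, mem_bot] at h2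
    exact hx₀.1 (by rw [h2, one_pow])
  -- values of the pair count
  have hone : Invol.pairCount (1 : G) = Invol.nInvol G := Invol.pairCount_one G
  have htwo : ∀ x : G, orderOf x = 2 → Invol.pairCount x + 1 = p := fun x hx =>
    (Invol.pairCount_add_one hx).trans (c.card_commuting S hM hO hx)
  have hpow : ∀ x : G, x ^ 2 ≠ 1 → Invol.pairCount x =
      if Ctx.Real x then p ^ k else 0 := by
    intro x hx
    split_ifs with hR
    · obtain ⟨hx2, s, hs, hinv⟩ := id hR
      rw [Invol.pairCount_eq_of_sq_ne hx2]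
      obtain ⟨R, hR', -⟩ := c.sylow_of_real S hM hO hR
      have hcard : Nat.card (centralizer ({x} : Set G)) = p ^ k := by
        rw [← hR', ← hk, R.card_eq_multiplicity, P.card_eq_multiplicity]
      rw [← hcard, ← Invol.card_inverting (isConj_iff.2 ⟨s, hinv⟩)]
      refine Nat.card_congr (Equiv.subtypeEquivRight fun t => ⟨fun h => h.2, fun h => ⟨?_, h⟩⟩)
      -- `t = s z` with `z` inverted by `s`
      have hz : s⁻¹ * t ∈ centralizer ({x} : Set G) := by
        refine mem_centralizer_singleton_iff.2 ?_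
        calc s⁻¹ * t * x = s⁻¹ * (t * x * t⁻¹) * t := by group
          _ = s⁻¹ * (s * x * s⁻¹) * t := by rw [h, hinv]
          _ = x * (s⁻¹ * t) := by group
      have hzinv := c.inverted S hM hO hx2 hs hinv hz
      have hodd := c.odd_centralizer S hM hO hx2 hs hinv
      refine orderOf_eq_prime ?_ fun ht => ?_
      · rw [pow_two]
        have hss := TwoFusion.involution_mul_self hs
        calc t * t = s * (s⁻¹ * t) * (s⁻¹) * (s * s) * (s⁻¹ * t) := by group
          _ = (s⁻¹ * t)⁻¹ * (s * s) * (s⁻¹ * t) := by rw [hzinv]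
          _ = 1 := by rw [hss]; group
      · rw [ht, one_mul, inv_one, mul_one] at h
        exact hx (by rw [pow_two]; nth_rewrite 1 [h]; exact inv_mul_cancel x)
    · by_contra hne
      obtain ⟨⟨⟨a, b⟩, ha, hb, hab⟩⟩ : Nonempty _ := (Nat.card_ne_zero.1 hne).1
      exact hR ⟨hx, a, ha, Invol.conj_inv_of_pair ha hb hab⟩
  set I := Invol.nInvol G with hI
  set A := Finset.univ.filter (fun x : G => Ctx.Real x) with hA
  have hpt : ∀ x : G, Invol.pairCount x + (if orderOf x = 2 then 1 else 0) =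
      (if x = 1 then I else 0) + (if orderOf x = 2 then p else 0) +
      (if Ctx.Real x then p ^ k else 0) := by
    intro x
    by_cases h1 : x = 1
    · subst h1
      have : ¬ Ctx.Real (1 : G) := fun h => h.1 (one_pow 2)
      rw [if_pos rfl, if_neg this, if_neg (by rw [orderOf_one]; omega : ¬ orderOf (1 : G) = 2), if_neg (by rw [orderOf_one]; omega : ¬ orderOf (1 : G) = 2), hone]
    by_cases h2 : orderOf x = 2
    · have : ¬ Ctx.Real x := fun h => h.1 (by rw [← h2]; exact pow_orderOf_eq_one x)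
      rw [if_neg h1, if_pos h2, if_pos h2, if_neg this, htwo x h2, zero_add, add_zero]
    have hx : x ^ 2 ≠ 1 := fun h => h2 (orderOf_eq_prime h h1)
    rw [if_neg h1, if_neg h2, if_neg h2, hpow x hx, add_zero, zero_add, zero_add]
  have hsum := Finset.sum_congr (rfl : (Finset.univ : Finset G) = _) (fun x _ => hpt x)
  rw [Finset.sum_add_distrib, Finset.sum_add_distrib, Finset.sum_add_distrib, Invol.sum_pairCount,
    ← Finset.sum_filter, ← Finset.sum_filter, ← Finset.sum_filter, ← Finset.sum_filter,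
    Finset.sum_const, Finset.sum_const, Finset.sum_const, Finset.sum_const] at hsum
  simp only [smul_eq_mul, mul_one] at hsum
  have hIcard : (Finset.univ.filter (fun x : G => orderOf x = 2)).card = I := by
    rw [hI, Invol.nInvol, Nat.card_eq_fintype_card, Fintype.card_subtype]
  have h1card : (Finset.univ.filter (fun x : G => x = 1)).card = 1 := by
    refine Finset.card_eq_one.2 ⟨1, ?_⟩
    ext; simp
  rw [hIcard, h1card, one_mul, ← hA, ← hI] at hsum
  -- `I² = p I + |A| p^k`
  have hmain : I * I = p * I + A.card * p ^ k := by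
    rw [Nat.mul_comm p I]; omega
  -- `p^k ∣ I`
  obtain ⟨e, he, he1⟩ := Signalizer.exists_ne_one_of_le_card
    (A := sqOne (S : Subgroup G)) (by have := c.eight_le S; omega)
  have he2 := c.orderOf_mem S he he1
  have hpI : p ^ k ∣ I := by
    have hI2 : I = Nat.card {u : G // IsConj e u} := by
      refine Nat.card_congr (Equiv.subtypeEquivRight fun u => ⟨fun hu => ?_, fun hu => ?_⟩)
      · obtain ⟨g, hg⟩ := c.exists_conj_mem S hu
        obtain ⟨n, -, hn⟩ := c.transitive S hM he he1 hg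
          (fun h => TwoFusion.involution_ne_one hu (conj_eq_one_iff.1 h))
        exact isConj_iff.2 ⟨g⁻¹ * n, by
          calc g⁻¹ * n * e * (g⁻¹ * n)⁻¹ = g⁻¹ * (n * e * n⁻¹) * g := by group
            _ = u := by rw [hn]; group⟩
      · obtain ⟨g, rfl⟩ := isConj_iff.1 hu
        rw [TwoFusion.orderOf_conj', he2]
    have h := Invol.card_isConj_mul e
    rw [← hI2] at h
    have hcop : (p ^ k).Coprime (Nat.card (centralizer ({e} : Set G))) := by
      refine Nat.Coprime.pow_left _ ((Fact.out : p.Prime).coprime_iff_not_dvd.2 fun hd => ?_)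
      obtain ⟨⟨y, hyC⟩, hy⟩ := exists_prime_orderOf_dvd_card' (G := centralizer ({e} : Set G)) p hd
      rw [orderOf_mk] at hy
      obtain ⟨R, hR⟩ := (IsPGroup.of_card (p := p) (n := 1)
        (show Nat.card (zpowers y) = p ^ 1 by rw [Nat.card_zpowers, hy, pow_one])).exists_le_sylow
      have hy1 : y ≠ 1 := fun h => by rw [h, orderOf_one] at hy; exact (Fact.out : p.Prime).ne_one hy.symm
      obtain ⟨hyR, -⟩ := c.sylow_real S hM hO R (hR (mem_zpowers y)) hy1
      obtain ⟨hy2, s, hs, hinv⟩ := hyR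
      have hodd := c.odd_centralizer S hM hO hy2 hs hinv
      have : 2 ∣ Nat.card (centralizer ({y} : Set G)) := by
        rw [← he2, ← orderOf_mk e (mem_centralizer_singleton_iff.2
          (mem_centralizer_singleton_iff.1 hyC).symm : e ∈ centralizer ({y} : Set G))]
        exact orderOf_dvd_natCard _
      exact Nat.not_even_iff_odd.2 hodd (even_iff_two_dvd.2 this)
    refine hcop.dvd_of_dvd_mul_right ?_
    rw [h, ← hk]
    exact card_subgroup_dvd_card _
  -- `|A| + 1 ≡ 0 (mod p)`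
  have hA1 : p ∣ A.card + 1 := by
    let B := {x : G // x = 1 ∨ Ctx.Real x}
    have hB : Nat.card B = A.card + 1 := by
      rw [Nat.card_eq_fintype_card, Fintype.card_subtype, Finset.filter_or]
      rw [Finset.card_union_of_disjoint, h1card, ← hA, add_comm]
      refine Finset.disjoint_filter.2 fun x _ h hR => ?_
      exact hR.1 (by rw [h, one_pow])
    have hinvB : ∀ g : P, ∀ x : G, (x = 1 ∨ Ctx.Real x) →
        ((g : G) * x * (g : G)⁻¹ = 1 ∨ Ctx.Real ((g : G) * x * (g : G)⁻¹)) := by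
      rintro g x (rfl | ⟨hx2, s, hs, hinv⟩)
      · left; group
      · right
        refine ⟨fun h => hx2 ?_, g * s * (g : G)⁻¹, by rw [TwoFusion.orderOf_conj', hs], ?_⟩
        · rw [conj_pow] at h; exact conj_eq_one_iff.1 h
        · calc _ = (g : G) * (s * x * s⁻¹) * (g : G)⁻¹ := by group
            _ = _ := by rw [hinv]; group
    letI : MulAction (P : Subgroup G) B :=
      { smul := fun g x => ⟨(g : G) * x.1 * (g : G)⁻¹, hinvB g x.1 x.2⟩
        one_smul := fun x => Subtype.ext (by show (1 : G) * x.1 * 1⁻¹ = x.1; group)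
        mul_smul := fun g h x => Subtype.ext (by
          show ((g : G) * h) * x.1 * ((g : G) * h)⁻¹ = g * ((h : G) * x.1 * (h : G)⁻¹) * (g : G)⁻¹
          group) }
    have hmod := P.2.card_modEq_card_fixedPoints B
    have hfix : Nat.card (MulAction.fixedPoints (P : Subgroup G) B) = p ^ k := by
      rw [← hk]
      refine Nat.card_congr
        { toFun := fun x => ⟨x.1.1, ?_⟩
          invFun := fun y => ⟨⟨y.1, ?_⟩, ?_⟩
          left_inv := fun x => rfl
          right_inv := fun y => rfl }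
      · -- a fixed point centralises `x₀`
        refine hP.symm.le ?_
        refine mem_centralizer_singleton_iff.2 ?_
        have hx0 : x₀ ∈ (P : Subgroup G) := hP ▸ mem_centralizer_singleton_iff.2 rfl
        have h : x₀ * x.1.1 * x₀⁻¹ = x.1.1 := congrArg Subtype.val (x.2 ⟨x₀, hx0⟩)
        calc x.1.1 * x₀ = x₀ * x.1.1 * x₀⁻¹ * x₀ := by rw [h]
          _ = x₀ * x.1.1 := by group
      · by_cases hy1 : (y : G) = 1
        · exact Or.inl hy1
        · exact Or.inr (c.sylow_real S hM hO P y.2 hy1).1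
      · intro g
        refine Subtype.ext ?_
        show (g : G) * y.1 * (g : G)⁻¹ = y.1
        by_cases hy1 : (y : G) = 1
        · rw [hy1]; group
        · have := mem_centralizer_singleton_iff.1
            ((c.sylow_real S hM hO P y.2 hy1).2.symm ▸ g.2 : (g : G) ∈ centralizer ({(y : G)} : Set G))
          rw [this, mul_inv_cancel_right]
    rw [hB, hfix] at hmod
    have hp0 : p ^ k ≡ 0 [MOD p] :=
      Nat.modEq_zero_iff_dvd.2 (dvd_pow_self p (by omega))
    exact Nat.modEq_zero_iff_dvd.1 (hmod.trans hp0)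
  -- conclusion
  have hpk : p ^ (k + 1) ∣ A.card * p ^ k := by
    obtain ⟨j, hj⟩ := hpI
    obtain ⟨k', rfl⟩ := Nat.exists_eq_add_of_le hk1
    have h1 : p ^ (1 + k' + 1) ∣ I * I := ⟨j * j * p ^ k', by rw [hj]; ring⟩
    have h2 : p ^ (1 + k' + 1) ∣ p * I := ⟨j, by rw [hj]; ring⟩
    exact (Nat.dvd_add_right h2).1 (hmain ▸ h1)
  rw [pow_succ'] at hpk
  have hpA : p ∣ A.card := Nat.dvd_of_mul_dvd_mul_right (pow_pos (Fact.out : p.Prime).pos k) hpk
  exact (Fact.out : p.Prime).one_lt.ne' (Nat.dvd_one.1 ((Nat.dvd_add_right hpA).1 hA1))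

end Cfsg.Agent.PPrimeAbelian.Ctx
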