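import Cfsg.Agent.PPrimeAbelian.Main
import Cfsg.Agent.PPrimeAbelian.SL2
import Cfsg.Agent.Modules.Thompson
import Cfsg.Agent.OddPre.ZJOdd
import Cfsg.Agent.S0080

/-!
The contradiction: transfer through `N(ZJ(P))` when `O(M)` is not centralised by `Ω₁(S)`, a count
of involution pairs when it is.
-/

set_option autoImplicit false
set_option linter.style.haveILetI false
set_option linter.unusedSectionVars false

namespace Cfsg.Agent.PPrimeAbelian.Ctx

open Subgroup
open scoped commutatorElement Pointwise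

universe u

variable {G : Type u} [Group G] [Finite G] {p : ℕ} (c : Ctx p G) [Fact p.Prime] (S : Sylow 2 G)
  {M : Subgroup G} (hM : Ctx.Emb S M)
include c hM

local notation "Ω₁S" => sqOne (S : Subgroup G)

theorem M_le_core_sup : M ≤ (Cfsg.pPrimeCore 2 M).map M.subtype ⊔
    (M ⊓ normalizer ((S : Subgroup G) : Set G)) := by
  haveI := c.proper_solvable_le hM.ne_top
  haveI : Fact (Nat.Prime 2) := ⟨Nat.prime_two⟩
  let T : Sylow 2 M := S.subtype (c.sylow_le S hM)
  haveI := (oddCore_abelianSylow T (c.comm_of_two_sub T)).1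
  have htop := T.normalizer_sup_eq_top'
    (le_sup_right : (T : Subgroup M) ≤ Cfsg.pPrimeCore 2 M ⊔ (T : Subgroup M))
  intro x hx
  have hm : (⟨x, hx⟩ : M) ∈ normalizer ((T : Subgroup M) : Set M) ⊔ Cfsg.pPrimeCore 2 M := by
    have : normalizer ((T : Subgroup M) : Set M) ⊔ (Cfsg.pPrimeCore 2 M ⊔ (T : Subgroup M)) ≤
        normalizer ((T : Subgroup M) : Set M) ⊔ Cfsg.pPrimeCore 2 M :=
      sup_le le_sup_left (sup_le le_sup_right (le_normalizer.trans le_sup_left))
    exact this (htop.symm ▸ mem_top _)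
  have hT : (T : Subgroup M) = (S : Subgroup G).subgroupOf M := rfl
  rw [hT, ← subgroupOf_normalizer_eq (c.sylow_le S hM)] at hm
  obtain ⟨n, hn, o, ho, hno⟩ := Subgroup.mem_sup_of_normal_right.1 hm
  have hx' : (n : G) * (o : G) = x := congrArg Subtype.val hno
  rw [← hx']
  exact mul_mem (mem_sup_right ⟨n.2, hn⟩) (mem_sup_left ⟨o, ho, rfl⟩)

/-- The first case: transfer. -/
theorem false_of_not_centralized
    (hO : ¬ (Cfsg.pPrimeCore 2 M).map M.subtype ≤ centralizer (Ω₁S : Set G)) : False := by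
  haveI : Fact (Nat.Prime 2) := ⟨Nat.prime_two⟩
  haveI := c.proper_solvable_le hM.ne_top
  set E := sqOne (S : Subgroup G) with hE
  have h8 : 8 ≤ Nat.card E := c.eight_le S
  have hEe : Cfsg.IsElementaryAbelian 2 E := c.elemAb_sqOne S
  have hEM : E ≤ M := c.sqOne_le_M S hM
  set O0 := Cfsg.pPrimeCore 2 M with hO0
  set O := O0.map M.subtype with hOdef
  have hOM : O ≤ M := map_subtype_le _
  have hMO : M ≤ normalizer (O : Set G) :=
    le_normalizer.trans (Coprime.normalizer_le_normalizer_map_characteristic _ _)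
  have hO2 : ¬ 2 ∣ Nat.card O := by
    rw [hOdef, card_map_of_injective M.subtype_injective]
    exact Cores.not_dvd_card_pPrimeCore
  set F := Cfsg.pPrimeCore p M with hF
  -- the `p'`-core has odd order
  have hFodd : ¬ 2 ∣ Nat.card F := by
    intro h2
    obtain ⟨t, ht⟩ := exists_prime_orderOf_dvd_card' 2 h2
    have htG : orderOf ((t : M) : G) = 2 := by rw [orderOf_coe, orderOf_coe]; exact ht
    obtain ⟨m, hm, hmE⟩ := c.exists_mem_conj S hM htG (t : M).2
    have hF' : ∀ e ∈ E, ∀ he : e ∈ M, (⟨e, he⟩ : M) ∈ F := by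
      intro e he heM
      by_cases he1 : e = 1
      · subst he1; exact one_mem F
      have hm1 : m * ((t : M) : G) * m⁻¹ ≠ 1 := fun h =>
        TwoFusion.involution_ne_one htG (conj_eq_one_iff.1 h)
      obtain ⟨n, hn, hne⟩ := c.transitive S hM hmE hm1 he he1
      have h := (Cores.pPrimeCore_normal_inst (p := p) M).conj_mem _ t.2
        (⟨n, hM.norm hn⟩ * ⟨m, hm⟩)
      convert h using 1
      refine Subtype.ext ?_
      show e = n * m * ((t : M) : G) * (n * m)⁻¹
      rw [← hne]; group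
    refine hO (commutator_eq_bot_iff_le_centralizer.1 ?_)
    rw [← Signalizer.commutator_commutator_eq (Signalizer.elemAb_isPGroup hEe)
      (hEM.trans hMO) hO2, commutator_eq_bot_iff_le_centralizer, commutator_le]
    intro o ho e he
    refine mem_centralizer_iff.2 fun e' he' => ?_
    obtain ⟨o', -, rfl⟩ := ho
    have h1 : ⁅o', (⟨e, hEM he⟩ : M)⁆ ∈ F := by
      have h := F.mul_mem ((Cores.pPrimeCore_normal_inst (p := p) M).conj_mem _ (hF' e he (hEM he)) o')
        (F.inv_mem (hF' e he (hEM he)))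
      rwa [commutatorElement_def]
    have hFc : (Nat.card F).Coprime p := Cores.pPrimeCore_coprime
    exact congrArg Subtype.val
      ((c.hyp.subgroup M).commute hFc (hF' e' he' (hEM he')) h1).eq
  -- a Sylow `p`-subgroup of `M`
  let Q : Sylow p M := default
  set P := (Q : Subgroup M).map M.subtype with hP
  have hPp : IsPGroup p P := Q.2.map _
  have hp2 : p ≠ 2 := by have := c.five; omega
  set Z0 := Cfsg.centerThompsonOf p (Q : Subgroup M) with hZ0
  set Z := Cfsg.centerThompsonOf p P with hZdef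
  have hZ : Z0.map M.subtype = Z := Modules.map_centerThompsonOf M.subtype_injective _
  -- `M = F N_M(Z)`
  have hcov : normalizer (Z0 : Set M) ⊔ F = ⊤ := by
    have hker : (Q : Subgroup M) ⊓ (QuotientGroup.mk' F).ker = ⊥ := by
      rw [QuotientGroup.ker_mk']
      exact disjoint_iff.1 (Subgroup.disjoint_of_coprime_natCard (by
        obtain ⟨k, hk⟩ := IsPGroup.iff_card.1 Q.2
        rw [hk]; exact (Cores.pPrimeCore_coprime (p := p) (G := M)).symm.pow_left k))
    let T : Sylow p (M ⧸ F) := Q.mapSurjective (QuotientGroup.mk'_surjective F)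
    have hstab : H4.ZJStable p (T : Subgroup (M ⧸ F)) :=
      (sl2Free_of_hyp c.five ((c.hyp.subgroup M).quotient F)).zjStable hp2 _
    have hn : (Cfsg.centerThompsonOf p (T : Subgroup (M ⧸ F))).Normal :=
      H4.centerThompsonOf_normal hp2 OddLocal.charP_quotient_pPrimeCore T hstab
    have heq : Z0.map (QuotientGroup.mk' F) = Cfsg.centerThompsonOf p (T : Subgroup (M ⧸ F)) := by
      rw [hZ0, OddPre.ZJOdd.map_centerThompsonOf _ _ hker]; rfl
    have h1 := hn.comap (QuotientGroup.mk' F)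
    rw [← heq, comap_map_eq, QuotientGroup.ker_mk'] at h1
    haveI := h1
    have hZp : IsPGroup p Z0 := Q.2.to_le (Modules.centerThompsonOf_le p _)
    let R : Sylow p ↥(Z0 ⊔ F) :=
      (hZp.comap_subtype (K := Z0 ⊔ F)).toSylow fun hd => by
        have h2 : (Z0.subgroupOf (Z0 ⊔ F)).index ∣ Nat.card F := by
          refine Nat.dvd_of_mul_dvd_mul_left (Nat.card_pos (α := Z0)) ?_
          have h3 := card_mul_index (Z0.subgroupOf (Z0 ⊔ F))
          rw [Nat.card_congr (subgroupOfEquivOfLe (le_sup_left : Z0 ≤ Z0 ⊔ F)).toEquiv] at h3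
          rw [h3, sup_comm]
          refine (Signalizer.card_sup_dvd (le_normalizer_of_normal (H := F))).trans ?_
          rw [mul_comm]
        exact Cores.not_dvd_card_pPrimeCore (hd.trans h2)
    have h4 := R.normalizer_sup_eq_top
    have h5 : (R : Subgroup ↥(Z0 ⊔ F)).map (Z0 ⊔ F).subtype = Z0 :=
      map_subgroupOf_eq_of_le le_sup_left
    rw [h5] at h4
    rw [eq_top_iff, ← h4]
    exact sup_le le_sup_left (sup_le (le_normalizer.trans le_sup_left) le_sup_right)
  -- hence a conjugate of `E` normalises `Z`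
  obtain ⟨m, hm, hmE⟩ : ∃ m ∈ M, ∀ e ∈ E, m * e * m⁻¹ ∈ normalizer (Z : Set G) := by
    set N0 := normalizer (Z0 : Set M) with hN0
    have hidx : ¬ 2 ∣ N0.index := by
      intro h2
      have h3 : N0.index ∣ Nat.card F := by
        have h4 := Signalizer.card_sup_dvd (X := F) (Y := N0) (le_normalizer_of_normal)
        rw [sup_comm, hcov, card_top, ← card_mul_index N0, mul_comm (Nat.card F)] at h4
        exact Nat.dvd_of_mul_dvd_mul_left Nat.card_pos h4
      exact hFodd (h2.trans h3)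
    let T0 : Sylow 2 N0 := default
    let T1 : Sylow 2 M := ((T0.2.map N0.subtype)).toSylow (by
      rw [index_map_subtype]
      exact fun h => (Nat.prime_two.dvd_mul.1 h).elim T0.not_dvd_index hidx)
    let SM : Sylow 2 M := S.subtype (c.sylow_le S hM)
    obtain ⟨m, hm⟩ := MulAction.exists_smul_eq M SM T1
    refine ⟨m, m.2, fun e he => ?_⟩
    have h1 : MulAut.conj m • (⟨e, hEM he⟩ : M) ∈ MulAut.conj m • (SM : Subgroup M) :=
      smul_mem_pointwise_smul _ _ _ (show (⟨e, hEM he⟩ : M) ∈ (SM : Subgroup M) from sqOne_le (S : Subgroup G) he)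
    have h2 : MulAut.conj m • (SM : Subgroup M) = (T1 : Subgroup M) := by rw [← hm]; rfl
    rw [h2] at h1
    have h3 : MulAut.conj m • (⟨e, hEM he⟩ : M) ∈ N0 := map_subtype_le _ h1
    have h4 := le_normalizer_map M.subtype ⟨_, h3, rfl⟩
    rw [hZ] at h4
    exact h4
  set X := normalizer (Z : Set G) with hX
  have hPne : P ≠ ⊥ := by
    intro h
    have hQ : (Q : Subgroup M) = ⊥ := (map_eq_bot_iff_of_injective _ M.subtype_injective).1 h
    refine hO (commutator_eq_bot_iff_le_centralizer.1 ?_)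
    -- without elements of order `p` the subgroup `M` is a `p'`-group, hence abelian
    have hMc : (Nat.card M).Coprime p := by
      refine ((Fact.out : p.Prime).coprime_iff_not_dvd.2 fun hd => ?_).symm
      exact Q.ne_bot_of_dvd_card hd hQ
    rw [commutator_eq_bot_iff_le_centralizer]
    exact fun o ho => mem_centralizer_iff.2 fun e he =>
      (c.hyp.commute hMc (hEM he) (hOM ho)).eq
  have hZne : Z ≠ ⊥ := Modules.centerThompsonOf_ne_bot hPp hPne
  have hXtop : X ≠ ⊤ := c.normalizer_ne_top hZne fun h => by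
    have h1 : Z ≤ M := (Modules.centerThompsonOf_le p P).trans (map_subtype_le _)
    exact hM.ne_top (top_le_iff.1 (h ▸ h1))
  have hXM : X ≤ M := by
    set X' := X.map (MulAut.conj m⁻¹).toMonoidHom with hX'
    have hX't : X' ≠ ⊤ := fun h => hXtop (by
      have h1 := congrArg (Subgroup.map (MulAut.conj m).toMonoidHom) h
      rw [hX', Signalizer.map_conj_map_conj, mul_inv_cancel, Signalizer.map_conj_one,
        map_top_of_surjective _ (MulAut.conj m).surjective] at h1
      exact h1)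
    have h := c.le_M S hM hX't fun e he => ⟨m * e * m⁻¹, hmE e he, by
      show m⁻¹ * (m * e * m⁻¹) * m⁻¹⁻¹ = e
      group⟩
    intro x hx
    have h1 : m⁻¹ * x * m⁻¹⁻¹ ∈ M := h ⟨x, hx, rfl⟩
    have h2 := M.mul_mem (M.mul_mem hm h1) (M.inv_mem hm)
    rwa [show m * (m⁻¹ * x * m⁻¹⁻¹) * m⁻¹ = x by group] at h2
  -- `P` is a Sylow subgroup of `G`
  have hnd : ¬ p ∣ P.index := by
    obtain ⟨P1, hP1⟩ := hPp.exists_le_sylow
    rcases eq_or_lt_of_le hP1 with h | h
    · rw [h]; exact P1.not_dvd_index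
    · exfalso
      have hlt := Fusion.lt_normalizer_inf P1.2 h
      have h2 : (P1 : Subgroup G) ⊓ normalizer (P : Set G) ≤ M :=
        inf_le_right.trans ((Modules.normalizer_le_normalizer_centerThompsonOf p P).trans hXM)
      have hp' : IsPGroup p ↥((P1 : Subgroup G) ⊓ normalizer (P : Set G)) := P1.2.to_le inf_le_left
      have h3 : ((P1 : Subgroup G) ⊓ normalizer (P : Set G)).subgroupOf M = (Q : Subgroup M) := by
        refine Q.is_maximal' (hp'.comap_subtype) ?_
        intro x hx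
        exact ⟨hP1 ⟨x, hx, rfl⟩, le_normalizer ⟨x, hx, rfl⟩⟩
      have h4 : (P1 : Subgroup G) ⊓ normalizer (P : Set G) = P :=
        (map_subgroupOf_eq_of_le h2).symm.trans (congrArg (Subgroup.map M.subtype) h3)
      exact hlt.ne h4.symm
  let PG : Sylow p G := hPp.toSylow hnd
  -- `M` has a normal subgroup of index divisible by `p` containing all its commutators
  set CE := M ⊓ centralizer (E : Set G) with hCE
  set K := (O ⊔ CE).subgroupOf M with hK
  have hKn : K.Normal := by
    refine normal_subgroupOf_of_le_normalizer (le_trans (c.M_le_core_sup S hM) ?_)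
    refine sup_le ((le_sup_left).trans le_normalizer) ?_
    refine le_trans ?_ (normalizer_inf_normalizer_le_normalizer_sup O CE)
    refine le_inf (inf_le_left.trans hMO) ?_
    refine le_trans ?_ inf_normalizer_le_normalizer_inf
    refine inf_le_inf le_normalizer ((normalizer_le_normalizer_sqOne _).trans ?_)
    intro g hg
    refine le_normalizer_iff.2 (fun g' hg' z hz => mem_centralizer_iff.2 fun e he => ?_) hg
    have h1 : g'⁻¹ * e * g'⁻¹⁻¹ ∈ E := (mem_normalizer_iff.1 (inv_mem hg') e).1 he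
    have h2 := mem_centralizer_iff.1 hz _ h1
    calc e * (g' * z * g'⁻¹) = g' * ((g'⁻¹ * e * g'⁻¹⁻¹) * z) * g'⁻¹ := by group
      _ = g' * (z * (g'⁻¹ * e * g'⁻¹⁻¹)) * g'⁻¹ := by rw [h2]
      _ = g' * z * g'⁻¹ * e := by group
  have hpq : IsPGroup p (M ⧸ K) := by
    intro z
    obtain ⟨x, rfl⟩ := QuotientGroup.mk'_surjective _ z
    have hx := c.M_le_core_sup S hM x.2
    rw [← SetLike.mem_coe, coe_mul_of_right_le_normalizer_left _ _ (inf_le_left.trans hMO)] at hx
    obtain ⟨o, ho, n, ⟨hnM, hnS⟩, hox⟩ := hx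
    obtain ⟨u, v, huv, hu, ⟨k, hk⟩, huz, hvz⟩ := exists_parts (p := p) Fact.out n
    have huM := (zpowers_le.2 hnM) huz
    have huS := (zpowers_le.2 hnS) huz
    have hvM := (zpowers_le.2 hnM) hvz
    have huC : u ∈ CE := ⟨huM, mem_centralizer_iff.2 fun e he =>
      (c.commute_of_coprime S.2 huS hu (sqOne_le _ he)).eq.symm⟩
    refine ⟨k, ?_⟩
    have h1 : x = (⟨o, hOM ho⟩ * ⟨u, huM⟩ : M) * ⟨v, hvM⟩ := Subtype.ext (by
      show (x : G) = o * u * v
      rw [mul_assoc, ← huv]; exact hox.symm)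
    have h2 : QuotientGroup.mk' K (⟨o, hOM ho⟩ * ⟨u, huM⟩ : M) = 1 :=
      (QuotientGroup.eq_one_iff _).2 (show o * u ∈ O ⊔ CE from mul_mem_sup ho huC)
    rw [h1, map_mul, h2, one_mul, ← map_pow,
      show (⟨v, hvM⟩ : M) ^ p ^ k = 1 from Subtype.ext hk, map_one]
  have hKtop : K ≠ ⊤ := by
    intro h
    obtain ⟨e, he, he1⟩ := Signalizer.exists_ne_one_of_le_card (A := E) (by omega)
    obtain ⟨f, hf, hfe⟩ := Signalizer.exists_not_mem_zpowers hEe (by omega) he he1
    have hf1 : f ≠ 1 := fun hh => hfe (hh ▸ one_mem _)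
    obtain ⟨n, hn, hne⟩ := c.transitive S hM he he1 hf hf1
    have hnK : n ∈ O ⊔ CE := (subgroupOf_eq_top.1 (hK ▸ h)) (hM.norm hn)
    rw [← SetLike.mem_coe, coe_mul_of_right_le_normalizer_left _ _ (inf_le_left.trans hMO)] at hnK
    obtain ⟨o, ho, y, ⟨-, hy⟩, rfl⟩ := hnK
    have h1 : o * e * o⁻¹ = f := by
      rw [← hne]
      have := mem_centralizer_iff.1 hy e he
      calc o * e * o⁻¹ = o * (y * e * y⁻¹) * o⁻¹ := by rw [← this]; group
        _ = _ := by group
    -- `e` and `f` differ by an element of `O ⊓ E`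
    have h2 : f * e⁻¹ ∈ O := by
      rw [← h1, show o * e * o⁻¹ * e⁻¹ = o * (e * o⁻¹ * e⁻¹) by group]
      exact O.mul_mem ho ((mem_normalizer_iff.1 (hMO (hEM he)) o⁻¹).1 (O.inv_mem ho))
    have h3 : f * e⁻¹ ∈ E := E.mul_mem hf (E.inv_mem he)
    by_cases h4 : f * e⁻¹ = 1
    · exact hfe (mul_inv_eq_one.1 h4 ▸ mem_zpowers e)
    · refine hO2 (?_ : 2 ∣ Nat.card O)
      rw [← c.orderOf_mem S h3 h4, ← orderOf_mk (f * e⁻¹) h2]
      exact orderOf_dvd_natCard _
  haveI := hKn
  haveI : Group.IsNilpotent (M ⧸ K) := hpq.isNilpotent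
  haveI : Nontrivial (M ⧸ K) := QuotientGroup.nontrivial_iff.2 hKtop
  set N1 := (commutator (M ⧸ K)).comap (QuotientGroup.mk' K) with hN1
  have hN1top : N1 ≠ ⊤ := by
    intro h
    have h1 : commutator (M ⧸ K) = ⊤ := by
      have := congrArg (Subgroup.map (QuotientGroup.mk' K)) h
      rwa [hN1, map_comap_eq_self_of_surjective (QuotientGroup.mk'_surjective K),
        map_top_of_surjective _ (QuotientGroup.mk'_surjective K)] at this
    exact Group.IsSolvable.commutator_lt_top_of_nontrivial (G := M ⧸ K) |>.ne h1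
  -- the focal subgroup of `P` lies in it
  have hfoc : Subgroup.focalSubgroup (PG : Subgroup G) ≤ N1.map M.subtype := by
    rw [Subgroup.focalSubgroup_def, closure_le]
    rintro _ ⟨hgP, x, hx, u, rfl⟩
    have hx' : u * x⁻¹ * u⁻¹ ∈ P := by
      have := P.mul_mem (P.inv_mem hx) hgP
      rwa [show x⁻¹ * ⁅x, u⁆ = u * x⁻¹ * u⁻¹ by simp [commutatorElement_def, mul_assoc]] at this
    obtain ⟨n, hn, hna⟩ := H4.zj_controls_fusion (p := p) hp2 _ G le_rfl (sl2Free_of_hyp c.five c.hyp)
      PG (zpowers x) u⁻¹ (zpowers_le.2 hx) (by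
        rw [inv_inv]
        rintro _ ⟨_, ⟨j, rfl⟩, rfl⟩
        show u * x ^ j * u⁻¹ ∈ P
        rw [← conj_zpow]
        refine P.zpow_mem ?_ j
        have := P.inv_mem hx'
        rwa [show (u * x⁻¹ * u⁻¹)⁻¹ = u * x * u⁻¹ by group] at this)
    have h1 := hna x⁻¹ (inv_mem (mem_zpowers x))
    rw [inv_inv] at h1
    have hxM : x ∈ M := map_subtype_le _ hx
    have hnM : n ∈ M := hXM hn
    refine ⟨⁅(⟨x, hxM⟩ : M), (⟨n, hnM⟩ : M)⁻¹⁆, ?_, ?_⟩
    · show QuotientGroup.mk' K _ ∈ commutator (M ⧸ K)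
      rw [map_commutatorElement]
      exact commutator_mem_commutator (mem_top _) (mem_top _)
    · show x * n⁻¹ * x⁻¹ * n⁻¹⁻¹ = ⁅x, u⁆
      rw [inv_inv, commutatorElement_def,
        show x * n⁻¹ * x⁻¹ * n = x * (n⁻¹ * x⁻¹ * n) by group, h1]
      group
  have hcop : Nat.Coprime (PG : Subgroup G).index (⁅(PG : Subgroup G), (PG : Subgroup G)⁆.relIndex PG) := by
    obtain ⟨k, hk⟩ := IsPGroup.iff_card.1 PG.2
    refine Nat.Coprime.coprime_dvd_right (Subgroup.relIndex_dvd_card _ _) ?_
    rw [hk]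
    exact (((Fact.out : p.Prime).coprime_iff_not_dvd.2 PG.not_dvd_index).pow_left k).symm
  have hcomm : commutator G = ⊤ := by
    haveI := c.simple
    refine (IsSimpleGroup.eq_bot_or_eq_top_of_normal (commutator G) inferInstance).resolve_left
      fun h => c.noncomm ⟨⟨fun a b => ?_⟩⟩
    have : ⁅a, b⁆ ∈ commutator G := commutator_mem_commutator (mem_top _) (mem_top _)
    rw [h, mem_bot] at this
    exact commutatorElement_eq_one_iff_mul_comm.1 this
  have hPfoc := (S0080.result (PG : Subgroup G) hcop).1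
  rw [hcomm, top_inf_eq] at hPfoc
  rw [hPfoc] at hfoc
  -- `M = K P`
  have hQ : (Q : Subgroup M) ≤ N1 := by
    intro x hx
    obtain ⟨y, hy, hyx⟩ := hfoc (show (x : G) ∈ P from ⟨x, hx, rfl⟩)
    exact (Subtype.ext hyx : y = x) ▸ hy
  refine hN1top (index_eq_one.1 (Nat.eq_one_iff_not_exists_prime_dvd.2 fun s hs hd => ?_))
  have h1 : N1.index ∣ (Q : Subgroup M).index := index_dvd_of_le hQ
  have h2 : N1.index ∣ Nat.card (M ⧸ K) := by
    rw [hN1, index_comap_of_surjective _ (QuotientGroup.mk'_surjective K)]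
    exact index_dvd_card _
  obtain ⟨k, hk⟩ := IsPGroup.iff_card.1 hpq
  rw [hk] at h2
  have hsp : s = p := (Nat.prime_dvd_prime_iff_eq hs Fact.out).1 (hs.dvd_of_dvd_pow (hd.trans h2))
  subst hsp
  exact Q.not_dvd_index (hd.trans h1)

end Cfsg.Agent.PPrimeAbelian.Ctx
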