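import Cfsg.Agent.PPrimeAbelian.Count
import Cfsg.Agent.S0144

/-!
Groups whose subgroups of order prime to `p` are abelian of exponent dividing `p - 1` are solvable,
given solvability in odd order.
-/

set_option autoImplicit false
set_option linter.style.haveILetI false

namespace Cfsg.Agent.PPrimeAbelian

open Subgroup

universe u

theorem not_simple_even {G : Type u} [Group G] [Finite G] {p : ℕ} [Fact p.Prime] (c : Ctx p G) :
    False := by
  haveI : Fact (Nat.Prime 2) := ⟨Nat.prime_two⟩
  let S : Sylow 2 G := default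
  obtain ⟨M, h1, h2, h3⟩ := c.exists_embedded S
  have hM : Ctx.Emb S M := ⟨h1, h2, h3⟩
  by_cases hO : (Cfsg.pPrimeCore 2 M).map M.subtype ≤
      centralizer ((sqOne (S : Subgroup G) : Subgroup G) : Set G)
  · exact c.false_of_centralized S hM hO
  · exact c.false_of_not_centralized S hM hO

theorem isSolvable_of_small {G : Type u} [Group G] [Finite G] {p : ℕ} [Fact p.Prime]
    (h : Hyp p G) (hp : p < 5) : Group.IsSolvable G := by
  have hp' := (Fact.out : p.Prime)
  have key : ∀ q, q.Prime → q ∣ Nat.card G → q = 2 ∨ q = 3 := by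
    intro q hq hd
    have := hq.two_le
    have := hp'.two_le
    rcases h.dvd_sub_one hp' hq hd with h1 | h1
    · subst h1
      have hq4 : q ≠ 4 := fun h4 => by rw [h4] at hq; norm_num at hq
      omega
    · have := Nat.le_of_dvd (by omega) h1
      omega
  have hn : Nat.card G ≠ 0 := Nat.card_pos.ne'
  obtain ⟨a, m, hm, hn1⟩ := Nat.exists_eq_pow_mul_and_not_dvd hn 2 (by norm_num)
  obtain ⟨b, m', hm', hn2⟩ := Nat.exists_eq_pow_mul_and_not_dvd
    (show m ≠ 0 from fun h0 => hn (by rw [hn1, h0, mul_zero])) 3 (by norm_num)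
  have hm1 : m' = 1 := by
    by_contra hne
    obtain ⟨q, hq, hqd⟩ := Nat.exists_prime_and_dvd hne
    have hd : q ∣ m := hn2 ▸ dvd_mul_of_dvd_right hqd _
    rcases key q hq (hn1 ▸ dvd_mul_of_dvd_right hd _) with rfl | rfl
    · exact hm hd
    · exact hm' hqd
  refine S0144.result 2 3 a b Nat.prime_two Nat.prime_three ?_
  rw [hn1, hn2, hm1, mul_one]

theorem isSolvable_aux (hFT : ∀ (X : Type u) [Group X] [Finite X], Odd (Nat.card X) → Group.IsSolvable X)
    {p : ℕ} [Fact p.Prime] : ∀ (n : ℕ) (G : Type u) [Group G] [Finite G], Nat.card G ≤ n →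
      Hyp p G → Group.IsSolvable G := by
  intro n
  induction n using Nat.strong_induction_on with
  | _ n ih =>
  intro G _ _ hn h
  rcases Nat.even_or_odd (Nat.card G) with he | ho
  swap
  · exact hFT G ho
  rcases lt_or_ge p 5 with hp | hp
  · exact isSolvable_of_small h hp
  have hsub : ∀ H : Subgroup G, H ≠ ⊤ → Group.IsSolvable H := fun H hH =>
    ih _ (lt_of_lt_of_le (lt_of_le_of_ne H.card_le_card_group
      fun he => hH (eq_top_of_card_eq H he)) hn) H le_rfl (h.subgroup H)
  by_cases hc : IsMulCommutative G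
  · exact Group.isSolvable_of_comm mul_comm'
  by_cases hsimple : IsSimpleGroup G
  · exact (not_simple_even ⟨hp, hsimple, hc, h, hsub, he⟩).elim
  haveI : Nontrivial G := by
    by_contra hnt
    rw [not_nontrivial_iff_subsingleton] at hnt
    exact hc ⟨⟨fun a b => Subsingleton.elim _ _⟩⟩
  obtain ⟨N, hN, hN1, hN2⟩ : ∃ N : Subgroup G, N.Normal ∧ N ≠ ⊥ ∧ N ≠ ⊤ := by
    by_contra hno
    push Not at hno
    exact hsimple ⟨fun N hN => (em (N = ⊥)).imp_right (hno N hN)⟩
  haveI := hN
  haveI := hsub N hN2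
  have hlt : Nat.card (G ⧸ N) < Nat.card G := by
    rw [← Subgroup.index_eq_card, ← N.index_mul_card]
    exact lt_mul_of_one_lt_right (Nat.pos_of_ne_zero N.index_ne_zero_of_finite)
      ((Subgroup.one_lt_card_iff_ne_bot N).2 hN1)
  haveI := ih _ (lt_of_lt_of_le hlt hn) (G ⧸ N) le_rfl (h.quotient N)
  exact Group.isSolvable_of_ker_le_range N.subtype (QuotientGroup.mk' N) (by simp)

end Cfsg.Agent.PPrimeAbelian
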